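import Cfsg.Agent.Lib.SporPres.He.Four
import Cfsg.Agent.Lib.SporPres.He.SpData
import Cfsg.Agent.Lib.Classical.SympOrder

/-! # Sp(4, 4) on the 85 points of its space -/

set_option autoImplicit false

namespace Cfsg.Agent.Lib.SporPres.He.Sp

open Cfsg.Agent.Lib.Coset Matrix

/-- The vectors. -/
abbrev Vec := Fin 2 ⊕ Fin 2 → Four

/-- The code of a vector. -/
def enc (x : Vec) : ℕ :=
  (x (Sum.inl 0)).code + 4 * (x (Sum.inl 1)).code + 16 * (x (Sum.inr 0)).code +
    64 * (x (Sum.inr 1)).code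

/-- The vector of a code. -/
def vecOf (k : ℕ) : Vec :=
  Sum.elim (fun i => Four.ofCode (k / 4 ^ (i : ℕ) % 4)) (fun i => Four.ofCode (k / 4 ^ (i : ℕ) / 16 % 4))

theorem code_lt (a : Four) : a.code < 4 := by cases a <;> decide

theorem enc_lt (x : Vec) : enc x < 256 := by
  have := code_lt (x (Sum.inl 0))
  have := code_lt (x (Sum.inl 1))
  have := code_lt (x (Sum.inr 0))
  have := code_lt (x (Sum.inr 1))
  unfold enc
  omega

theorem vecOf_enc (x : Vec) : vecOf (enc x) = x := by
  have key : ∀ a b c d : Four,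
      Four.ofCode ((a.code + 4 * b.code + 16 * c.code + 64 * d.code) % 4) = a ∧
      Four.ofCode ((a.code + 4 * b.code + 16 * c.code + 64 * d.code) / 4 % 4) = b ∧
      Four.ofCode ((a.code + 4 * b.code + 16 * c.code + 64 * d.code) / 16 % 4) = c ∧
      Four.ofCode ((a.code + 4 * b.code + 16 * c.code + 64 * d.code) / 4 / 16 % 4) = d := by
    decide +kernel
  have h := key (x (Sum.inl 0)) (x (Sum.inl 1)) (x (Sum.inr 0)) (x (Sum.inr 1))
  funext i
  rcases i with i | i <;> fin_cases i <;> simp [vecOf, enc, h]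

/-- The point of a vector. -/
noncomputable def pidx (x : Vec) : ℕ := nodeOf pidS (enc x)

/-- The scale of a vector. -/
noncomputable def coef (x : Vec) : Four := Four.ofCode (nodeOf coefS (enc x))

/-- The vector of a point. -/
noncomputable def repV (i : ℕ) : Vec := vecOf (nodeOf repS i)

theorem table_spec : ∀ k : Fin 256, pidx (vecOf k) < 85 ∧ (vecOf k ≠ 0 →
    coef (vecOf k) ≠ 0 ∧ vecOf k = coef (vecOf k) • repV (pidx (vecOf k))) := by decide +kernel

theorem smul_spec : ∀ k : Fin 256, ∀ c : Four, c ≠ 0 → vecOf k ≠ 0 →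
    pidx (c • vecOf k) = pidx (vecOf k) := by decide +kernel

theorem pidx_repV : ∀ i : Fin 85, pidx (repV i) = i ∧ repV i ≠ 0 := by decide +kernel

theorem pidx_lt (x : Vec) : pidx x < 85 := by
  have := (table_spec ⟨_, enc_lt x⟩).1
  rwa [vecOf_enc] at this

theorem decomp {x : Vec} (hx : x ≠ 0) : coef x ≠ 0 ∧ x = coef x • repV (pidx x) := by
  have := (table_spec ⟨_, enc_lt x⟩).2
  rw [vecOf_enc] at this
  exact this hx

theorem pidx_smul {c : Four} (hc : c ≠ 0) {x : Vec} (hx : x ≠ 0) : pidx (c • x) = pidx x := by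
  have := smul_spec ⟨_, enc_lt x⟩ c hc
  rw [vecOf_enc] at this
  exact this hx

/-- The symplectic group. -/
abbrev Sp4 := Matrix.symplecticGroup (Fin 2) Four

theorem mulVec_ne_zero (A : Sp4) {x : Vec} (hx : x ≠ 0) : A.1 *ᵥ x ≠ 0 := fun h => hx (by
  have h1 := congrArg ((A⁻¹ : Sp4).1 *ᵥ ·) h
  simp only [mulVec_mulVec, mulVec_zero] at h1
  rwa [show (A⁻¹ : Sp4).1 * A.1 = 1 from congrArg Subtype.val (inv_mul_cancel A), one_mulVec] at h1)

/-- The action of a matrix on the points. -/
noncomputable def moveFn (A : Sp4) (i : Fin 85) : Fin 85 := ⟨pidx (A.1 *ᵥ repV i), pidx_lt _⟩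

theorem moveFn_mul (A B : Sp4) (i : Fin 85) : moveFn A (moveFn B i) = moveFn (A * B) i := by
  refine Fin.ext ?_
  show pidx (A.1 *ᵥ repV (pidx (B.1 *ᵥ repV i))) = pidx ((A.1 * B.1) *ᵥ repV i)
  have hy := mulVec_ne_zero B (pidx_repV i).2
  obtain ⟨hc, hd⟩ := decomp hy
  have hne : repV (pidx (B.1 *ᵥ repV i)) ≠ 0 := fun h => hy (by rw [hd, h, smul_zero])
  rw [← mulVec_mulVec]
  conv_rhs => rw [hd, mulVec_smul, pidx_smul hc (mulVec_ne_zero A hne)]

theorem moveFn_one (i : Fin 85) : moveFn 1 i = i :=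
  Fin.ext (by show pidx ((1 : Sp4).1 *ᵥ repV i) = i; rw [show (1 : Sp4).1 = 1 from rfl, one_mulVec]; exact (pidx_repV i).1)

/-- The action on the points. -/
noncomputable def move : Sp4 →* Equiv.Perm (Fin 85) where
  toFun A := ⟨moveFn A, moveFn A⁻¹, fun i => by rw [moveFn_mul, inv_mul_cancel, moveFn_one],
    fun i => by rw [moveFn_mul, mul_inv_cancel, moveFn_one]⟩
  map_one' := Equiv.ext moveFn_one
  map_mul' A B := Equiv.ext fun i => (moveFn_mul A B i).symm

theorem sq_eq_one : ∀ d : Four, d * d = 1 → d = 1 := by decide +kernel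

theorem move_injective : Function.Injective move := by
  rw [injective_iff_map_eq_one]
  intro A hA
  have hscal : ∀ x : Vec, x ≠ 0 → ∃ d : Four, A.1 *ᵥ x = d • x := by
    intro x hx
    obtain ⟨hc, hd⟩ := decomp hx
    have hne : repV (pidx x) ≠ 0 := fun h => hx (by rw [hd, h, smul_zero])
    have h1 : pidx (A.1 *ᵥ repV (pidx x)) = pidx x :=
      congrArg Fin.val (show moveFn A ⟨pidx x, pidx_lt x⟩ = ⟨pidx x, pidx_lt x⟩ from
        congrArg (fun σ : Equiv.Perm (Fin 85) => σ ⟨pidx x, pidx_lt x⟩) hA)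
    obtain ⟨-, hd'⟩ := decomp (mulVec_ne_zero A hne)
    rw [h1] at hd'
    refine ⟨coef (A.1 *ᵥ repV (pidx x)), ?_⟩
    conv_lhs => rw [hd, mulVec_smul, hd', smul_comm, ← hd]
  have h1 : ∀ j, ∃ d : Four, A.1 *ᵥ Pi.single j 1 = d • (Pi.single j 1 : Vec) := fun j =>
    hscal _ fun h => by simpa using congrFun h j
  choose d hd using h1
  have hA' : A.1 = Matrix.diagonal d := by
    ext i j
    have := congrFun (hd j) i
    rw [mulVec_single_one] at this
    rw [show A.1 i j = _ from this]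
    by_cases h : i = j
    · subst h; simp
    · simp [h]
  obtain ⟨e, he⟩ := hscal (fun _ => 1) fun h => by simpa using congrFun h (Sum.inl 0)
  have hde : ∀ j, d j = e := fun j => by
    have := congrFun he j
    rw [hA', mulVec_diagonal] at this
    simpa using this
  have hJ := congrFun (congrFun (SymplecticGroup.mem_iff.1 A.2) (Sum.inl 0)) (Sum.inr 0)
  rw [hA', diagonal_transpose, mul_diagonal, diagonal_mul, hde, hde] at hJ
  have he1 : e = 1 := sq_eq_one e (by
    have hJ0 : Matrix.J (Fin 2) Four (Sum.inl 0) (Sum.inr 0) = 1 := by decide +kernel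
    rwa [hJ0, mul_one] at hJ)
  exact Subtype.ext (hA'.trans (by rw [funext hde, he1]; exact Matrix.diagonal_one))

theorem card_Sp4 : Nat.card Sp4 = 979200 := by
  rw [Cfsg.Agent.Lib.Classical.card_symplecticGroup, Four.card_four]
  decide +kernel

/-- The matrices of the linear columns. -/
def mat (g : ℕ) : Matrix (Fin 2 ⊕ Fin 2) (Fin 2 ⊕ Fin 2) Four :=
  Matrix.of fun i j => Four.ofCode
    (((matData.getD g []).getD (Sum.elim (fun k : Fin 2 => (k : ℕ)) (fun k : Fin 2 => 2 + (k : ℕ)) i) []).getD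
      (Sum.elim (fun k : Fin 2 => (k : ℕ)) (fun k : Fin 2 => 2 + (k : ℕ)) j) 0)

theorem mat_mem : ∀ g : Fin 3, mat g * Matrix.J (Fin 2) Four * (mat g)ᵀ = Matrix.J (Fin 2) Four := by
  decide +kernel

theorem mat_act : ∀ g : Fin 3, ∀ i : Fin 85, pidx (mat g *ᵥ repV i) = tab85.act g i := by
  decide +kernel

theorem good85 : tab85.Good :=
  Tab.good_of_invOK (B := 85) (fun k hk => by
    have : k = 0 := by
      have : tab85.size = 85 := rfl
      omega
    subst this
    decide +kernel) (by norm_num)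

theorem perm_mem_move (g : ℕ) (hg : g < 3) : tab85.perm good85 g ∈ move.range :=
  ⟨⟨mat g, SymplecticGroup.mem_iff.2 (mat_mem ⟨g, hg⟩)⟩, Equiv.ext fun i => Fin.ext (by
    rw [Tab.perm, dif_pos (show g < tab85.gens from Nat.lt_of_lt_of_le hg (by decide +kernel))]
    exact mat_act ⟨g, hg⟩ i)⟩

theorem move_range :
    move.range = Subgroup.closure (tab85.perm good85 '' Set.Iio 3) ∧ Nat.card move.range = 979200 := by
  have hle : Subgroup.closure (tab85.perm good85 '' Set.Iio 3) ≤ move.range :=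
    (Subgroup.closure_le _).2 (by rintro _ ⟨g, hg, rfl⟩; exact perm_mem_move g hg)
  have hcard : Nat.card move.range = 979200 := by
    rw [← card_Sp4]; exact (Nat.card_congr (MonoidHom.ofInjective move_injective).toEquiv).symm
  refine ⟨(Subgroup.eq_of_le_of_card_ge hle ?_).symm, hcard⟩
  have h : Tab.chainCard chainLin = 979200 := by decide +kernel
  refine (hcard.trans h.symm).le.trans ?_
  refine tab85.chain_spec good85 (by decide +kernel) fun l hl w hw => ?_
  have hl' : (chainLin.all fun l => lettersBelow 3 l.2.1) = true := by decide +kernel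
  exact mem_closure_letters (List.all_eq_true.1 hl' l hl) w hw

end Cfsg.Agent.Lib.SporPres.He.Sp
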